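import Cfsg.Agent.CosetEnum.Fi23.Order

/-!
Equality in the presented group Fi23 can be tested on seven points of the table.
(The same argument as in `CosetEnum.Fi23.Cover`, whose imports are not needed here.)
-/

set_option autoImplicit false
set_option maxRecDepth 8000

namespace CfsgLib.Fi23Mult

open CfsgLib.CosetEnum CfsgLib.CosetEnum.Fi23

/-- seven points with trivial stabilizer -/
def basePts : List ℕ := [0, 11589, 9592, 1863, 1231, 10179, 1]

theorem base_check : [Tab.emb 0, Tab.emb 1, Tab.emb 192, Tab.emb 521, Tab.emb 2359] =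
    [11589, 9592, 1863, 1231, 10179] := by decide +kernel

theorem sub_base_trivial {τ : Equiv.Perm (Fin Fi22.Tab.perm.n)} (h : τ ∈ Fi22.pi.range)
    (hfix : ∀ p ∈ [Fi22.P4, Fi22.P3, Fi22.P2, Fi22.P1, Fi22.P0], τ p = p) : τ = 1 := by
  have hb := Fi22.card_range_ge
  rw [Fi22.card_range_eq] at hb
  have h1 : Nat.card (pointStab Fi22.pi.range [Fi22.P4, Fi22.P3, Fi22.P2, Fi22.P1, Fi22.P0]) = 1 := by
    have := Nat.card_pos (α := pointStab Fi22.pi.range [Fi22.P4, Fi22.P3, Fi22.P2, Fi22.P1, Fi22.P0])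
    omega
  have hm : τ ∈ pointStab Fi22.pi.range [Fi22.P4, Fi22.P3, Fi22.P2, Fi22.P1, Fi22.P0] :=
    mem_pointStab.2 ⟨h, hfix⟩
  rw [Subgroup.eq_bot_of_card_eq _ h1] at hm
  exact Subgroup.mem_bot.1 hm

theorem card_ker_toSub : Nat.card toSub.ker = 2 := by
  have h := toSub.ker.card_mul_index
  rw [Subgroup.index_ker, toSub_range, Fi22.card_range_eq,
    Nat.card_congr (MonoidHom.ofInjective toPts_injective).toEquiv, toPts_range,
    ← Nat.card_congr (Subgroup.equivMapOfInjective _ _ pi_injective).toEquiv, index_and_card_Hs.2] at h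
  exact Nat.eq_of_mul_eq_mul_right (show 0 < 64561751654400 by norm_num)
    (h.trans (show 129123503308800 = 2 * 64561751654400 by norm_num))

theorem eq_one_or_zW {p : Gamma} (hp : p ∈ toSub.ker) :
    p.1.1 = 1 ∨ p.1.1 = gword perm_ok.sigma zW := by
  by_contra hcon
  push Not at hcon
  classical
  set z : toSub.ker := ⟨⟨_, pair_mem zW_lt⟩, zW_sub⟩
  have hsub : ({1, z, ⟨p, hp⟩} : Finset toSub.ker).card ≤ Nat.card toSub.ker := by
    have : Fintype toSub.ker := Fintype.ofFinite _
    rw [Nat.card_eq_fintype_card]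
    exact Finset.card_le_univ _
  rw [card_ker_toSub, Finset.card_eq_three.2 ⟨_, _, _, ?_, ?_, ?_, rfl⟩] at hsub
  · omega
  · intro h
    exact sigma_zW_ne (congrArg (fun q : toSub.ker => q.1.1.1) h).symm
  · intro h
    exact hcon.1 (congrArg (fun q : toSub.ker => q.1.1.1) h).symm
  · intro h
    exact hcon.2 (congrArg (fun q : toSub.ker => q.1.1.1) h).symm

/-- An element of Fi23 fixing the seven points is trivial. -/
theorem eq_one_of_fix {a : Cfsg.Spor.Fi23}
    (h : ∀ p : Fin Tab.perm.n, (p : ℕ) ∈ basePts → pi a p = p) : a = 1 := by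
  refine pi_injective ?_
  rw [map_one]
  have ha : a ∈ Hs := (mem_Hs_iff a).2 (h P0 (by rw [pt_val]; decide))
  have hm : pi a ∈ toPts.range := toPts_range ▸ Subgroup.mem_map_of_mem pi ha
  obtain ⟨q, hq⟩ := hm
  have hq1 : q.1.1 = pi a := hq
  have hτ : q.1.2 = 1 := by
    refine sub_base_trivial (toSub_range ▸ ⟨q, rfl⟩) fun p hp => emb_injective ?_
    rw [← induces_of_mem q.2 p, hq1]
    refine h _ ?_
    have e := base_check
    simp only [List.cons.injEq] at e
    obtain ⟨e0, e1, e2, e3, e4, -⟩ := e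
    show Tab.emb p ∈ basePts
    simp only [List.mem_cons, List.not_mem_nil, or_false] at hp
    rcases hp with rfl | rfl | rfl | rfl | rfl <;> simp only [Fi22.pt_val] <;>
      first
        | (rw [e0]; decide) | (rw [e1]; decide) | (rw [e2]; decide) | (rw [e3]; decide)
        | (rw [e4]; decide)
  rcases eq_one_or_zW (p := q) hτ with h1 | h1
  · rw [← hq1, h1]
  · exfalso
    have h2 := h (pt 1) (by rw [pt_val]; decide)
    rw [← hq1, h1] at h2
    have h3 := perm_ok.gword_inv_apply zW (fun x hx => Nat.lt_succ_of_lt (zW_lt x hx)) (pt 1)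
    rw [Equiv.Perm.inv_eq_iff_eq.2 h2.symm, pt_val] at h3
    exact zW_moves h3.symm

/-- Equality in the group can be tested on seven points. -/
theorem gword_eq_of_base {v w : List ℕ} (hv : ∀ x ∈ v, x < 10) (hw : ∀ x ∈ w, x < 10)
    (h : basePts.all (fun i => Nat.beq (runT Tab.perm.T Tab.perm.L v i)
      (runT Tab.perm.T Tab.perm.L w i)) = true) : gword g10 v = gword g10 w := by
  refine mul_inv_eq_one.1 (eq_one_of_fix fun p hp => ?_)
  have hr : (gword perm_ok.sigma v)⁻¹ p = (gword perm_ok.sigma w)⁻¹ p := by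
    refine Fin.ext ?_
    rw [perm_ok.gword_inv_apply v hv, perm_ok.gword_inv_apply w hw]
    exact Nat.eq_of_beq_eq_true (List.all_eq_true.1 h p hp)
  rw [map_mul, map_inv, pi_gword v hv, pi_gword w hw, Equiv.Perm.mul_apply, ← hr]
  simp

/-- letters below ten -/
def okWord (w : List ℕ) : Bool := w.all fun x => x.blt 10

/-- two words agree on the seven points -/
noncomputable def sameW (v w : List ℕ) : Bool :=
  okWord v && okWord w && basePts.all fun p =>
    Nat.beq (runT Tab.perm.T Tab.perm.L v p) (runT Tab.perm.T Tab.perm.L w p)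

theorem of_okWord {w : List ℕ} (h : okWord w = true) : ∀ y ∈ w, y < 10 := by
  intro y hy
  have := List.all_eq_true.1 h y hy
  simpa [Nat.blt, Nat.ble_eq] using this

theorem gword_eq_of_sameW {v w : List ℕ} (h : sameW v w = true) :
    gword g10 v = gword g10 w := by
  simp only [sameW, Bool.and_eq_true] at h
  obtain ⟨⟨hv, hw⟩, hb⟩ := h
  exact gword_eq_of_base (of_okWord hv) (of_okWord hw) hb

end CfsgLib.Fi23Mult
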