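import Mathlib

/-! Generated: rewriting certificates and words for the Schur multiplier of Fi23. -/

set_option autoImplicit false
set_option maxRecDepth 100000

namespace CfsgLib.Fi23Mult

/-- non-edges, each next to an earlier one -/
def chain : List ((ℕ × ℕ) × (ℕ × ℕ)) := [((9,1),(9,0)),((6,0),(9,0)),((9,2),(9,1)),((6,1),(9,1)),((5,0),(6,0)),((9,3),(9,2)),((6,2),(9,2)),((5,1),(6,1)),((4,0),(5,0)),((9,4),(9,3)),((6,3),(9,3)),((9,7),(9,3)),((5,2),(6,2)),((4,1),(5,1)),((3,0),(4,0)),((9,5),(9,4)),((6,4),(9,4)),((5,3),(6,3)),((6,7),(6,3)),((9,8),(9,7)),((4,2),(5,2)),((3,1),(4,1)),((2,0),(3,0)),((7,0),(3,0)),((5,7),(5,3)),((6,8),(6,7)),((7,1),(3,1)),((8,0),(7,0)),((4,7),(5,7)),((5,8),(5,7)),((7,2),(7,1)),((8,1),(7,1)),((4,8),(4,7)),((8,2),(7,2)),((3,8),(4,8)),((8,3),(8,2)),((2,8),(3,8)),((8,4),(8,3)),((1,8),(2,8)),((2,7),(2,8)),((8,5),(8,4)),((7,4),(8,4)),((0,8),(1,8)),((1,7),(1,8)),((8,6),(8,5)),((7,5),(8,5)),((0,7),(0,8)),((1,3),(1,7)),((7,6),(8,6)),((8,9),(8,6)),((3,5),(7,5)),((0,3),(0,7)),((1,4),(1,3)),((3,6),(7,6)),((7,9),(7,6)),((2,5),(3,5)),((0,2),(0,3)),((0,4),(0,3)),((2,4),(1,4)),((1,5),(1,4)),((2,6),(3,6)),((4,6),(3,6)),((3,9),(3,6)),((0,5),(0,4)),((1,6),(1,5)),((2,9),(2,6)),((4,9),(4,6)),((0,6),(0,5)),((1,9),(1,6)),((5,9),(4,9)),((0,9),(0,6))]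

/-- conjugators -/
def threeConj : List (List ℕ) := [[],[8,7,5,1],[7,8,4,5,2]]

/-- conjugators -/
def fourConj : List (List ℕ) := [[],[3,1],[7,8,5,2,3],[7,8,7,5,2]]

/-- common normal form -/
def normForm : List ℕ := [1,7,3,2,4,3,5,4,7,3,2,1,8,7,3,2,4,3,5,4,7,3,2,1,8,7,3,2,4,3,5,4,7,3,2,1,8,7,3,2,4,3,5,4,7,3,2,8]

/-- a transposition word -/
def pairA0 : List ℕ := [1,2,3,7,8,4,3,7,5,4,3,2,3,4,5,7,3,4,8,7,3,2,1]

/-- a transposition word -/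
def pairB0 : List ℕ := [8,7,3,4,2,3,7,5,4,3,2,1,2,3,4,5,7,3,2,4,3,7,8]

/-- a transposition word -/
def pairA1 : List ℕ := [1]

/-- a transposition word -/
def pairB1 : List ℕ := [8]

/-- a transposition word -/
def pairA2 : List ℕ := [2]

/-- a transposition word -/
def pairB2 : List ℕ := [7]

/-- a transposition word -/
def pairA3 : List ℕ := [2,3,7,8,4,3,7,5,4,3,2,1,2,3,4,5,7,3,4,8,7,3,2]

/-- a transposition word -/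
def pairB3 : List ℕ := [7,8,3,4,2,3,7,5,4,3,2,1,2,3,4,5,7,3,2,4,3,8,7]

/-- transpositions carrying the first pairs to the second -/
def taus : List (List ℕ) := [[5,6,9,5,3,4,1,2,3,7,8,5,3,4,2,3,7,6,5,4,3,2,1,2,3,4,5,6,7,3,2,4,3,5,8,7,3,2,1,4,3,5,9,6,5],[5,6,9,5,3,4,2,3,7,8,7,5,3,4,2,3,7,6,5,4,3,2,1,2,3,4,5,6,7,3,2,4,3,5,7,8,7,3,2,4,3,5,9,6,5]]

end CfsgLib.Fi23Mult
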