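import Cfsg.Agent.Fi23Mult.Tree
import Cfsg.Agent.Fi23Mult.RedSq
import Cfsg.Agent.Fi23Mult.RedThree
import Cfsg.Agent.Fi23Mult.RedFour
import Cfsg.Agent.Fi23Mult.RedPair
import Cfsg.Agent.CosetEnum.Present

/-!
Lifts satisfying all relations of Fi23 in a central extension.
-/

set_option autoImplicit false

namespace CfsgLib.Fi23Mult

open CfsgLib.CosetEnum CfsgLib.Schur.CoxLift
open scoped commutatorElement

variable {E G : Type} [Group E] [Group G] (σ : E →* G)

theorem map_gword_of {g : ℕ → G} {s : ℕ → E} (h : ∀ x < 10, σ (s x) = g x) {w : List ℕ}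
    (hw : ∀ x ∈ w, x < 10) : σ (gword s w) = gword g w := by
  rw [gword_map]
  exact gword_congr _ _ fun x hx => h x (hw x hx)

/-- stage one: the lifts up to one central square -/
theorem exists_square_lifts (hs : Function.Surjective σ) (hc : σ.ker ≤ Subgroup.center E)
    {g : ℕ → G} (hG : GFacts g) : ∃ (s : ℕ → E) (z : E), (∀ x < 10, σ (s x) = g x) ∧ z ∈ σ.ker ∧
      Rels s 10 adj z := by
  obtain ⟨s, z, hm, hzk, hsq, hbr⟩ := exists_tree σ hs hc hG
  have hz : ∀ e, e * z = z * e := fun e => Subgroup.mem_center_iff.1 (hc hzk) e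
  have hcm : ∀ x y, nonEdge (x, y) = true → x < 10 ∧ y < 10 ∧ Commute (σ (s x)) (σ (s y)) := by
    intro x y h
    simp only [nonEdge, Bool.and_eq_true, decide_eq_true_eq, Bool.not_eq_true', beq_eq_false_iff_ne]
      at h
    obtain ⟨⟨⟨hx, hy⟩, hne⟩, ha⟩ := h
    exact ⟨hx, hy, by rw [hm x hx, hm y hy]; exact hG.comm x hx y hy hne ha⟩
  set k := ⁅s 9, s 0⁆ with hk
  have h90 := hcm 9 0 (by decide)
  obtain ⟨hkc, -, hk2, -⟩ := comm_sq σ hc hz (hsq 9 h90.1) (hsq 0 h90.2.1) h90.2.2
  rw [← hk] at hkc hk2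
  let P : ℕ × ℕ → Prop := fun q => ⁅s q.1, s q.2⁆ = k
  have hstep : ∀ q p, linked q p = true → P p → P q := by
    rintro ⟨x, y⟩ ⟨x', y'⟩ h hp
    simp only [linked, Bool.and_eq_true, Bool.or_eq_true, beq_iff_eq, Bool.not_eq_true',
      beq_eq_false_iff_ne] at h
    obtain ⟨⟨hq, hp'⟩, h⟩ := h
    obtain ⟨hx, hy, hxy⟩ := hcm x y hq
    obtain ⟨hx', hy', hxy'⟩ := hcm x' y' hp'
    rcases h with ⟨⟨rfl, ha⟩, -⟩ | ⟨⟨rfl, ha⟩, -⟩
    · exact (comm_move σ hc hz (hsq x hx) (hsq y hy) (hsq y' hy') hxy hxy'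
        (hbr y hy y' hy' ha)).trans hp
    · show ⁅s x, s y⁆ = k
      obtain ⟨-, -, -, hf⟩ := comm_sq σ hc hz (hsq y hy) (hsq x hx) hxy.symm
      obtain ⟨-, -, -, hf'⟩ := comm_sq σ hc hz (hsq x' hx') (hsq y hy) hxy'
      rw [hf, comm_move σ hc hz (hsq y hy) (hsq x hx) (hsq x' hx') hxy.symm hxy'.symm
        (hbr x hx x' hx' ha), hf']
      exact hp
  have hall : ∀ x y, nonEdge (x, y) = true → ⁅s x, s y⁆ = k := by
    intro x y h
    obtain ⟨hx, hy, -⟩ := hcm x y h
    have hcov := List.all_eq_true.1 (List.all_eq_true.1 chain_covers x (List.mem_range.2 hx)) y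
      (List.mem_range.2 hy)
    simp only [h, Bool.not_true, Bool.false_or, Bool.or_eq_true, List.contains_iff_mem,
      List.mem_singleton] at hcov
    rcases hcov with hcov | hcov
    · obtain ⟨rfl, rfl⟩ := Prod.mk.inj hcov
      rfl
    · obtain ⟨e, he, hee⟩ := List.mem_map.1 hcov
      have := chain_const hstep chain [(9, 0)] (fun q hq => by
        rw [List.mem_singleton.1 hq]) chain_ok e he
      rw [hee] at this
      exact this
  have hk1 : k = 1 := by
    have hl : ∀ w : List ℕ, (∀ x ∈ w, nonEdge (9, x) = true) →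
        s 9 * gword s w = k ^ w.length * (gword s w * s 9) := by
      intro w
      induction w with
      | nil => intro _; simp [gword_nil]
      | cons x w ih =>
        intro hw
        have e : s 9 * s x = k * (s x * s 9) := by
          have := hall 9 x (hw x List.mem_cons_self)
          rw [← this, commutatorElement_def]
          group
        rw [gword_cons, ← mul_assoc, e, mul_assoc k, mul_assoc (s x),
          ih fun y hy => hw y (List.mem_cons_of_mem _ hy), List.length_cons, pow_succ',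
          ← mul_assoc (s x) (k ^ w.length),
          Subgroup.mem_center_iff.1 (pow_mem hkc _) (s x)]
        simp only [mul_assoc]
    have hw : ∀ x ∈ relTwo, nonEdge (9, x) = true := by decide +kernel
    have h := hl relTwo hw
    have hcen : gword s relTwo ∈ Subgroup.center E := hc (MonoidHom.mem_ker.2 (by
      rw [map_gword_of σ hm (w := relTwo) (by decide +kernel)]; exact hG.two))
    rw [Subgroup.mem_center_iff.1 hcen (s 9), lengths.1] at h
    have h63 : k ^ 63 = 1 := mul_eq_right.1 h.symm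
    rwa [show 63 = 2 * 31 + 1 by norm_num, pow_succ, pow_mul, pow_two, hk2, one_pow, one_mul]
      at h63
  refine ⟨s, z, hm, hzk, ⟨hz, hsq, fun x hx y hy _ ha => hbr x hx y hy ha, ?_⟩⟩
  intro x hx y hy hne ha
  have := hall x y (by simp [nonEdge, hx, hy, hne, ha])
  rw [hk1] at this
  exact commutatorElement_eq_one_iff_commute.1 this

/-- stage two: involutions with the E7 relation -/
theorem exists_involution_lifts (hs : Function.Surjective σ) (hc : σ.ker ≤ Subgroup.center E)
    {g : ℕ → G} (hG : GFacts g) : ∃ s : ℕ → E, (∀ x < 10, σ (s x) = g x) ∧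
      Rels s 10 adj 1 ∧ gword s relTwo = 1 := by
  obtain ⟨s, z, hm, hzk, R⟩ := exists_square_lifts σ hs hc hG
  set θ := gword s relTwo
  have hθk : θ ∈ σ.ker := MonoidHom.mem_ker.2 (by
    rw [map_gword_of σ hm (w := relTwo) (by decide +kernel)]; exact hG.two)
  have hθ2 : θ * θ = z ^ 63 := by
    have h := Sq.red s z R
    rwa [gword_append, gword_nil, mul_one] at h
  set c := θ * (z ^ 32)⁻¹ with hcdef
  have hck : c ∈ σ.ker := mul_mem hθk (inv_mem (pow_mem hzk _))
  have hcc : ∀ e, e * c = c * e := fun e => Subgroup.mem_center_iff.1 (hc hck) e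
  have cθ : Commute θ z := R.central θ
  have h1 : c * c * z = 1 := by
    rw [hcdef, show θ * (z ^ 32)⁻¹ * (θ * (z ^ 32)⁻¹) * z =
      θ * ((z ^ 32)⁻¹ * θ) * (z ^ 32)⁻¹ * z by group, ← ((cθ.pow_right 32).inv_right).eq,
      show θ * (θ * (z ^ 32)⁻¹) * (z ^ 32)⁻¹ * z = θ * θ * ((z ^ 32)⁻¹ * (z ^ 32)⁻¹ * z) by group,
      hθ2]
    group
  refine ⟨fun x => c * s x, fun x hx => ?_, R.scale hcc h1, ?_⟩
  · rw [map_mul, MonoidHom.mem_ker.1 hck, one_mul, hm x hx]
  · rw [gword_scale hcc, lengths.1]
    have hcz : (c * c) = z⁻¹ := eq_inv_of_mul_eq_one_left h1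
    rw [show 63 = 2 * 31 + 1 by norm_num, pow_succ, pow_mul, pow_two, hcz, hcdef,
      mul_assoc, mul_assoc θ, ← ((cθ.pow_right 32).inv_right).eq,
      show z⁻¹ ^ 31 * (θ * (θ * (z ^ 32)⁻¹)) = z⁻¹ ^ 31 * (θ * θ) * (z ^ 32)⁻¹ by group, hθ2]
    group

variable {s : ℕ → E} {g : ℕ → G}

theorem gword_conjs (R : Rels s 10 adj 1) (hθc : ∀ e, e * gword s relOne = gword s relOne * e) :
    ∀ us : List (List ℕ), us.all small = true → gword s (conjs us) = gword s relOne ^ us.length
  | [], _ => by simp [conjs, gword_nil]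
  | u :: us, h => by
    rw [List.all_cons, Bool.and_eq_true] at h
    simp only [conjs, List.flatMap_cons, List.length_cons]
    rw [gword_append, gword_append, gword_append, hθc, gword_reverse R (of_small h.1),
      mul_inv_cancel_right, pow_succ']
    exact congrArg _ (gword_conjs R hθc us h.2)

theorem eq_of_sq_cube {x : E} (h2 : x * x = 1) (h3 : x ^ 3 = 1) : x = 1 := by
  rwa [pow_succ, pow_two, h2, one_mul] at h3

/-- a palindrome is a lift of an involution -/
theorem palin (R : Rels s 10 adj 1) {w : List ℕ}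
    (hw : w ∈ [pairA0, pairA1, pairA2, pairA3, pairB0, pairB1, pairB2, pairB3] ++ taus) :
    (∀ x ∈ w, x < 10) ∧ gword s w * gword s w = 1 ∧ gword s w.reverse = gword s w := by
  have h := List.all_eq_true.1 palins w hw
  simp only [Bool.and_eq_true, beq_iff_eq] at h
  exact ⟨of_small h.1, gword_palindrome R (of_small h.1) h.2, by rw [h.2]⟩

theorem moved_eq (R : Rels s 10 adj 1) (a : List ℕ) :
    gword s (moved a) = gword s mover * gword s a * (gword s mover)⁻¹ := by
  have hm : small mover = true := by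
    have := words_small; simp only [Bool.and_eq_true] at this; exact this.1.1.1.1.2
  rw [moved, gword_append, gword_append, gword_reverse R (of_small hm)]

/-- stage three: the spider relation -/
theorem relOne_eq_one (hc : σ.ker ≤ Subgroup.center E) (hG : GFacts g)
    (hm : ∀ x < 10, σ (s x) = g x) (R : Rels s 10 adj 1) : gword s relOne = 1 := by
  set θ := gword s relOne
  have hθk : θ ∈ σ.ker := MonoidHom.mem_ker.2 (by
    rw [map_gword_of σ hm (w := relOne) (by decide +kernel)]; exact hG.one)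
  have hθc : ∀ e, e * θ = θ * e := fun e => Subgroup.mem_center_iff.1 (hc hθk) e
  have hws := words_small
  simp only [Bool.and_eq_true] at hws
  obtain ⟨⟨⟨⟨⟨hyB, hmov⟩, h3⟩, h4⟩, -⟩, -⟩ := hws
  have hθ3 : θ ^ 3 = 1 := by
    have h := Three.red s 1 R
    rwa [gword_conjs R hθc _ h3, lengths.2.2.1, one_pow, one_mul, gword_nil] at h
  have hT : gword s pairWord = θ := by
    have h := Four.red s 1 R
    have h' := Pair.red s 1 R
    rw [gword_conjs R hθc _ h4, lengths.2.2.2.1, one_pow, one_mul, pow_succ, hθ3, one_mul] at h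
    rw [one_pow, one_mul, ← h] at h'
    exact h'
  set Y := gword s yA with hY
  have hsmallA : ∀ x ∈ yA, x < 10 := by decide +kernel
  have hY3 : Y * Y * Y ∈ Subgroup.center E := hc (MonoidHom.mem_ker.2 (by
    rw [map_mul, map_mul, map_gword_of σ hm hsmallA, ← gword_append, ← gword_append]
    exact hG.cube))
  have htau : ∀ t ∈ taus, Commute (gword s t) Y := by
    intro t ht
    obtain ⟨hts, ht2, -⟩ := palin R (w := t) (List.mem_append_right _ ht)
    set T := gword s t
    have hd : T * Y * T⁻¹ * Y⁻¹ ∈ Subgroup.center E := hc (MonoidHom.mem_ker.2 (by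
      rw [map_mul, map_mul, map_mul, map_inv, map_inv, map_gword_of σ hm hts,
        map_gword_of σ hm hsmallA, ← gword_append, hG.fixes t ht, gword_append]
      group))
    generalize hdd : T * Y * T⁻¹ * Y⁻¹ = d at hd
    have e : T * Y * T⁻¹ = d * Y := by rw [← hdd]; group
    have hTi : T⁻¹ = T := inv_eq_of_mul_eq_one_right ht2
    have cd : ∀ x, Commute x d := fun x => Subgroup.mem_center_iff.1 hd x
    have d2 : d * d = 1 := by
      have h : T * (d * Y) * T⁻¹ = Y := by
        rw [← e, hTi, show T * (T * Y * T) * T = T * T * Y * (T * T) by group, ht2, one_mul,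
          mul_one]
      rw [← mul_assoc T, (cd T).eq, mul_assoc d, mul_assoc d, e, ← mul_assoc] at h
      exact mul_eq_right.1 h
    have d3 : d ^ 3 = 1 := by
      have h : T * (Y * Y * Y) * T⁻¹ = d * Y * (d * Y) * (d * Y) := by rw [← e]; group
      rw [Subgroup.mem_center_iff.1 hY3 T, mul_inv_cancel_right] at h
      have cY : Commute d Y := (cd Y).symm
      rw [show d * Y * (d * Y) * (d * Y) = (d * Y) ^ 3 by
          rw [pow_succ, pow_two], cY.mul_pow,
        show Y ^ 3 = Y * Y * Y by rw [pow_succ, pow_two]] at h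
      exact mul_eq_right.1 h.symm
    have := eq_of_sq_cube d2 d3
    rw [this, one_mul] at e
    exact mul_inv_eq_iff_eq_mul.1 e
  have hU : Commute (gword s mover) Y := by
    have hl : ∀ l : List (List ℕ), (∀ t ∈ l, Commute (gword s t) Y) →
        Commute (gword s l.flatten) Y := by
      intro l
      induction l with
      | nil => intro _; exact Commute.one_left _
      | cons t l ih =>
        intro h
        rw [List.flatten_cons, gword_append]
        exact (h t List.mem_cons_self).mul_left (ih fun u hu => h u (List.mem_cons_of_mem _ hu))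
    exact hl taus htau
  have hpair : ∀ a b : List ℕ, a ∈ [pairA0, pairA1, pairA2, pairA3] →
      b ∈ [pairB0, pairB1, pairB2, pairB3] → gword g (moved a) = gword g b →
      ∃ c ∈ Subgroup.center E, c * c = 1 ∧
        gword s mover * gword s a * (gword s mover)⁻¹ = c * gword s b := by
    intro a b ha hb hab
    obtain ⟨has, ha2, -⟩ := palin R (w := a) (by
      simp only [List.mem_cons, List.not_mem_nil, or_false] at ha; simp [ha]; tauto)
    obtain ⟨hbs, hb2, -⟩ := palin R (w := b) (by
      simp only [List.mem_cons, List.not_mem_nil, or_false] at hb; simp [hb]; tauto)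
    set U := gword s mover
    set A := gword s a
    set B := gword s b
    have hk : U * A * U⁻¹ * B⁻¹ ∈ Subgroup.center E := hc (MonoidHom.mem_ker.2 (by
      rw [map_mul, ← moved_eq R, map_inv, map_gword_of σ hm (fun x hx => ?_),
        map_gword_of σ hm hbs, hab, mul_inv_cancel]
      simp only [moved, List.mem_append, List.mem_reverse] at hx
      rcases hx with (hx | hx) | hx
      · exact of_small hmov x hx
      · exact has x hx
      · exact of_small hmov x hx))
    refine ⟨_, hk, ?_, (inv_mul_cancel_right _ _).symm⟩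
    generalize hcc : U * A * U⁻¹ * B⁻¹ = c at hk
    have e : U * A * U⁻¹ = c * B := by rw [← hcc, inv_mul_cancel_right]
    have h : c * B * (c * B) = 1 := by
      rw [← e, show U * A * U⁻¹ * (U * A * U⁻¹) = U * (A * A) * U⁻¹ by group, ha2, mul_one,
        mul_inv_cancel]
    rw [show c * B * (c * B) = c * (B * c) * B by group, Subgroup.mem_center_iff.1 hk B,
      show c * (c * B) * B = c * c * (B * B) by group, hb2, mul_one] at h
    exact h
  obtain ⟨h0, h1, h2, h3'⟩ := hG.move
  obtain ⟨c0, k0, o0, e0⟩ := hpair pairA0 pairB0 (by simp) (by simp) h0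
  obtain ⟨c1, k1, o1, e1⟩ := hpair pairA1 pairB1 (by simp) (by simp) h1
  obtain ⟨c2, k2, o2, e2⟩ := hpair pairA2 pairB2 (by simp) (by simp) h2
  obtain ⟨c3, k3, o3, e3⟩ := hpair pairA3 pairB3 (by simp) (by simp) h3'
  have hC : Y = c0 * c1 * c2 * c3 * gword s yB := by
    conv_lhs => rw [← mul_inv_cancel_right Y (gword s mover), ← hU.eq]
    simp only [hY, yA, yB, gword_append]
    set U := gword s mover
    rw [show U * (gword s pairA0 * gword s pairA1 * gword s pairA2 * gword s pairA3) * U⁻¹ =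
      U * gword s pairA0 * U⁻¹ * (U * gword s pairA1 * U⁻¹) * (U * gword s pairA2 * U⁻¹) *
        (U * gword s pairA3 * U⁻¹) by group, e0, e1, e2, e3]
    set B0 := gword s pairB0
    set B1 := gword s pairB1
    set B2 := gword s pairB2
    set B3 := gword s pairB3
    rw [show c0 * B0 * (c1 * B1) * (c2 * B2) * (c3 * B3) =
      c0 * (B0 * c1) * (B1 * c2) * (B2 * c3) * B3 by group,
      Subgroup.mem_center_iff.1 k1 B0, Subgroup.mem_center_iff.1 k2 B1,
      Subgroup.mem_center_iff.1 k3 B2,
      show c0 * (c1 * B0) * (c2 * B1) * (c3 * B2) * B3 = c0 * c1 * (B0 * c2) * (B1 * c3) * B2 * B3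
        by group, Subgroup.mem_center_iff.1 k2 B0, Subgroup.mem_center_iff.1 k3 B1,
      show c0 * c1 * (c2 * B0) * (c3 * B1) * B2 * B3 = c0 * c1 * c2 * (B0 * c3) * B1 * B2 * B3
        by group, Subgroup.mem_center_iff.1 k3 B0]
    group
  have hθC : θ = c0 * c1 * c2 * c3 := by
    rw [← hT, pairWord, gword_append, gword_reverse R (of_small hyB), ← hY, hC,
      mul_inv_cancel_right]
  refine eq_of_sq_cube ?_ hθ3
  rw [hθC]
  have cc : ∀ {c : E}, c ∈ Subgroup.center E → ∀ x, Commute x c := fun h x =>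
    Subgroup.mem_center_iff.1 h x
  calc c0 * c1 * c2 * c3 * (c0 * c1 * c2 * c3)
      = c0 * c1 * c2 * (c3 * c0) * c1 * c2 * c3 := by group
    _ = c0 * c1 * c2 * (c0 * c3) * c1 * c2 * c3 := by rw [(cc k0 c3).eq]
    _ = c0 * c1 * (c2 * c0) * (c3 * c1) * c2 * c3 := by group
    _ = c0 * c1 * (c0 * c2) * (c1 * c3) * c2 * c3 := by rw [(cc k0 c2).eq, (cc k1 c3).eq]
    _ = c0 * (c1 * c0) * (c2 * c1) * (c3 * c2) * c3 := by group
    _ = c0 * (c0 * c1) * (c1 * c2) * (c2 * c3) * c3 := by
        rw [(cc k0 c1).eq, (cc k1 c2).eq, (cc k2 c3).eq]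
    _ = c0 * c0 * (c1 * c1) * (c2 * c2) * (c3 * c3) := by group
    _ = 1 := by rw [o0, o1, o2, o3]; simp

/-- lifts satisfying all relations -/
theorem exists_exact_lifts (hs : Function.Surjective σ) (hc : σ.ker ≤ Subgroup.center E)
    (hG : GFacts g) : ∃ s : ℕ → E, (∀ x < 10, σ (s x) = g x) ∧ Rels s 10 adj 1 ∧
      gword s relOne = 1 ∧ gword s relTwo = 1 := by
  obtain ⟨s, hm, R, h2⟩ := exists_involution_lifts σ hs hc hG
  exact ⟨s, hm, R, relOne_eq_one σ hc hG hm R, h2⟩

end CfsgLib.Fi23Mult
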