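import Cfsg.Agent.Fi23Mult.Base
import Cfsg.Agent.Fi23Mult.Section
import Cfsg.Agent.Schur.StemSylow
import Cfsg.Agent.Eq.Def_KGroupFacts
import Cfsg.Agent.Eq.Def_SporCoxeter

/-!
The Schur multiplier of Fi23 is trivial: every central extension has lifts satisfying the presentation.
-/

set_option autoImplicit false
set_option maxRecDepth 100000

namespace CfsgLib.Fi23Mult

open CfsgLib.CosetEnum CfsgLib.CosetEnum.Fi23 CfsgLib.Schur.CoxLift

/-- all relation checks on the table -/
noncomputable def tableChecks : Bool :=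
  (List.range 10).all (fun x => sameW [x, x] []) &&
  (List.range 10).all (fun x => (List.range 10).all fun y =>
    if x == y then true else if adj x y then sameW [x, y, x] [y, x, y] else sameW [x, y] [y, x]) &&
  sameW relOne [] && sameW relTwo [] && sameW (moved pairA0) pairB0 && sameW (moved pairA1) pairB1 &&
  sameW (moved pairA2) pairB2 && sameW (moved pairA3) pairB3 &&
  taus.all (fun t => sameW (t ++ yA) (yA ++ t)) && sameW (yA ++ yA ++ yA) []

theorem tableChecks_ok : tableChecks = true := by decide +kernel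

theorem facts : GFacts g10 := by
  have h := tableChecks_ok
  simp only [tableChecks, Bool.and_eq_true, List.all_eq_true, List.mem_range] at h
  obtain ⟨⟨⟨⟨⟨⟨⟨⟨⟨hsq, hrel⟩, h1⟩, h2⟩, m0⟩, m1⟩, m2⟩, m3⟩, hf⟩, hc⟩ := h
  refine ⟨fun x hx => ?_, fun x hx y hy hne ha => ?_, fun x hx y hy hne ha => ?_, ?_, ?_,
    ⟨gword_eq_of_sameW m0, gword_eq_of_sameW m1, gword_eq_of_sameW m2, gword_eq_of_sameW m3⟩,
    fun t ht => gword_eq_of_sameW (hf t ht), ?_⟩
  · have := gword_eq_of_sameW (hsq x hx)
    simpa [gword_cons, gword_nil] using this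
  · have := hrel x hx y hy
    rw [if_neg (by simp [hne]), if_pos ha] at this
    simpa [gword_cons, gword_nil, mul_assoc] using gword_eq_of_sameW this
  · have := hrel x hx y hy
    rw [if_neg (by simp [hne]), if_neg (by simp [ha])] at this
    simpa [gword_cons, gword_nil] using gword_eq_of_sameW this
  · exact gword_eq_of_sameW h1
  · exact gword_eq_of_sameW h2
  · exact gword_eq_of_sameW hc

theorem label_eq (x y : Cfsg.Spor.Fi23.Gen) :
    Cfsg.Spor.coxLabel Cfsg.Spor.Fi23.edges x y =
      if enc x = enc y then 1 else if adj (enc x) (enc y) then 3 else 2 := by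
  cases x <;> cases y <;> decide

theorem exists_section {E : Type} [Group E] (σ : E →* Cfsg.Spor.Fi23)
    (hs : Function.Surjective σ) (hc : σ.ker ≤ Subgroup.center E) :
    ∃ τ : Cfsg.Spor.Fi23 →* E, σ.comp τ = MonoidHom.id _ := by
  obtain ⟨s, hm, R, h1, h2⟩ := exists_exact_lifts σ hs hc facts
  have hrel : ∀ r ∈ Cfsg.Spor.coxRelators Cfsg.Spor.Fi23.edges ∪
      {r | r ∈ Cfsg.Spor.Fi23.extra}, FreeGroup.lift (fun x => s (enc x)) r = 1 := by
    rintro r (⟨x, -, y, -, rfl⟩ | hr)
    · rw [map_pow, map_mul, FreeGroup.lift_apply_of, FreeGroup.lift_apply_of, label_eq]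
      split
      · next he => rw [pow_one, he]; exact R.sq _ (enc_lt y)
      · next he =>
        have hx := enc_lt x
        have hy := enc_lt y
        split
        · next ha =>
          have hb := R.braid _ hx _ hy he ha
          rw [pow_succ, pow_two]
          calc s (enc x) * s (enc y) * (s (enc x) * s (enc y)) * (s (enc x) * s (enc y))
              = s (enc x) * s (enc y) * s (enc x) * (s (enc y) * s (enc x) * s (enc y)) := by group
            _ = s (enc y) * s (enc x) * (s (enc y) * s (enc y)) * s (enc x) * s (enc y) := by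
                rw [hb]; group
            _ = s (enc y) * (s (enc x) * s (enc x)) * s (enc y) := by
                rw [R.sq _ hy, mul_one, mul_assoc (s (enc y))]
            _ = 1 := by rw [R.sq _ hx, mul_one, R.sq _ hy]
        · next ha =>
          have hb := R.comm _ hx _ hy he (by simpa using ha)
          rw [pow_two]
          nth_rewrite 2 [hb]
          rw [show s (enc x) * s (enc y) * (s (enc y) * s (enc x)) =
            s (enc x) * (s (enc y) * s (enc y)) * s (enc x) by group, R.sq _ hy, mul_one,
            R.sq _ hx]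
    · simp only [Set.mem_setOf_eq, Cfsg.Spor.Fi23.extra, List.mem_cons, List.not_mem_nil,
        or_false] at hr
      have hrep : ∀ (w : List ℕ) (k : ℕ), gword s (List.replicate k w).flatten = gword s w ^ k := by
        intro w k
        induction k with
        | zero => simp [gword_nil]
        | succ k ih => rw [List.replicate_succ, List.flatten_cons, gword_append, ih, pow_succ']
      rcases hr with rfl | rfl
      · rw [← h1, relOne, hrep]
        simp only [map_pow, map_mul, FreeGroup.lift_apply_of, gword_cons, gword_nil, mul_one,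
          mul_assoc, enc]
      · rw [← h2, relTwo, hrep]
        simp only [map_pow, map_mul, FreeGroup.lift_apply_of, gword_cons, gword_nil, mul_one,
          mul_assoc, enc]
  refine ⟨PresentedGroup.toGroup hrel, PresentedGroup.ext fun x => ?_⟩
  rw [MonoidHom.comp_apply, PresentedGroup.toGroup.of, hm _ (enc_lt x), MonoidHom.id_apply, g10,
    letterVal_lt gen (enc_lt x), gen, dec_enc]

theorem ker_eq_bot {E : Type} [Group E] (σ : E →* Cfsg.Spor.Fi23)
    (hσ : Cfsg.IsStemExtension σ) : σ.ker = ⊥ := by
  obtain ⟨τ, hτ⟩ := exists_section σ hσ.1 hσ.2.1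
  have hst : ∀ x, σ (τ x) = x := fun x => DFunLike.congr_fun hτ x
  have hle : commutator E ≤ τ.range := by
    rw [commutator_def, Subgroup.commutator_le]
    intro a _ b _
    have e : ∀ a : E, ∃ k ∈ Subgroup.center E, a = k * τ (σ a) := fun a =>
      ⟨a * (τ (σ a))⁻¹, hσ.2.1 (MonoidHom.mem_ker.2 (by
        rw [map_mul, map_inv, hst, mul_inv_cancel])), (inv_mul_cancel_right _ _).symm⟩
    obtain ⟨k, hk, ha⟩ := e a
    obtain ⟨l, hl, hb⟩ := e b
    rw [ha, hb, Schur.ThreeGroups.commutator_mul_central_left hk,
      Schur.ThreeGroups.commutator_mul_central_right hl, ← map_commutatorElement]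
    exact ⟨_, rfl⟩
  rw [eq_bot_iff]
  intro z hz
  obtain ⟨x, rfl⟩ := hle (hσ.2.2 hz)
  rw [MonoidHom.mem_ker, hst] at hz
  rw [hz, map_one]
  exact one_mem _

theorem fi23_trivial : Cfsg.HasCyclicSchurMultiplier Cfsg.Spor.Fi23 1 := by
  have := finite_fi23
  refine Schur.hasCyclicSchurMultiplier_one fun Γ _ _ σ hσ p hp => ?_
  rw [ker_eq_bot σ hσ, Subgroup.card_bot]
  exact hp.one_lt.ne' ∘ Nat.dvd_one.1

end CfsgLib.Fi23Mult
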