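import Cfsg.Agent.Fi23Mult.Words
import Cfsg.Agent.Schur.ThreeGroups

/-!
Lifts along the tree Y342 in a central extension: braid relations exactly, equal squares, commuting
letters commute.
-/

set_option autoImplicit false

namespace CfsgLib.Fi23Mult

open CfsgLib.CosetEnum CfsgLib.Schur.CoxLift
open scoped commutatorElement

variable {E G : Type} [Group E] [Group G]

/-- the relations of the generators of Fi23 used by the lifting -/
structure GFacts (g : ℕ → G) : Prop where
  /-- involutions -/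
  sq : ∀ x < 10, g x * g x = 1
  /-- joined letters -/
  braid : ∀ x < 10, ∀ y < 10, x ≠ y → adj x y = true → g x * g y * g x = g y * g x * g y
  /-- other letters -/
  comm : ∀ x < 10, ∀ y < 10, x ≠ y → adj x y = false → g x * g y = g y * g x
  /-- spider relation -/
  one : gword g relOne = 1
  /-- E7 relation -/
  two : gword g relTwo = 1
  /-- the moving element carries pair to pair -/
  move : gword g (moved pairA0) = gword g pairB0 ∧ gword g (moved pairA1) = gword g pairB1 ∧
    gword g (moved pairA2) = gword g pairB2 ∧ gword g (moved pairA3) = gword g pairB3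
  /-- the moving transpositions fix the product -/
  fixes : ∀ t ∈ taus, gword g (t ++ yA) = gword g (yA ++ t)
  /-- order three -/
  cube : gword g (yA ++ yA ++ yA) = 1

/-- conjugation by the product with a neighbour -/
def tw (X U : E) : E := X * U * X * (X * U)⁻¹

variable (σ : E →* G)

theorem tw_map {X U : E} {a b : G} (hX : σ X = a) (hU : σ U = b) (hbr : a * b * a = b * a * b) :
    σ (tw X U) = b := by
  rw [tw, map_mul, map_inv, map_mul, map_mul, hX, hU, hbr, mul_inv_rev]
  group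

theorem tw_braid (hc : σ.ker ≤ Subgroup.center E) {X U : E} {a b : G} (hX : σ X = a) (hU : σ U = b)
    (hbr : a * b * a = b * a * b) : X * tw X U * X = tw X U * X * tw X U := by
  have hY := tw_map σ hX hU hbr
  set Y := tw X U with hYdef
  have hk : Y⁻¹ * U ∈ Subgroup.center E :=
    hc (MonoidHom.mem_ker.2 (by rw [map_mul, map_inv, hY, hU, inv_mul_cancel]))
  have e : X * U = (Y⁻¹ * U) * (X * Y) := by
    rw [← Subgroup.mem_center_iff.1 hk (X * Y)]
    group
  have h2 : Y = X * Y * X * (X * Y)⁻¹ := by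
    generalize hKdef : Y⁻¹ * U = K at hk e
    conv_lhs => rw [hYdef, tw, e]
    rw [show K * (X * Y) * X * (K * (X * Y))⁻¹ = K * (X * Y * X * (X * Y)⁻¹) * K⁻¹ by group,
      ← Subgroup.mem_center_iff.1 hk (X * Y * X * (X * Y)⁻¹), mul_inv_cancel_right]
  have h3 : Y * (X * Y) = X * Y * X := by
    rw [show X * Y * X = X * Y * X * (X * Y)⁻¹ * (X * Y) by group, ← h2]
  rw [← h3, mul_assoc]

theorem tw_sq {X U z : E} (hz : ∀ e, e * z = z * e) (h : X * X = z) :
    tw X U * tw X U = z := by
  rw [tw, show X * U * X * (X * U)⁻¹ * (X * U * X * (X * U)⁻¹) = X * U * (X * X) * (X * U)⁻¹ by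
    group, h, hz (X * U), mul_inv_cancel_right]

theorem exists_tree (hs : Function.Surjective σ) (hc : σ.ker ≤ Subgroup.center E) {g : ℕ → G}
    (hG : GFacts g) : ∃ (s : ℕ → E) (z : E), (∀ x < 10, σ (s x) = g x) ∧ z ∈ σ.ker ∧
      (∀ x < 10, s x * s x = z) ∧
      ∀ x < 10, ∀ y < 10, adj x y = true → s x * s y * s x = s y * s x * s y := by
  choose u hu using fun x => hs (g x)
  have hb : ∀ {x y : ℕ}, (x, y) ∈ edgeList → g x * g y * g x = g y * g x * g y := by
    intro x y h
    have hlt : ∀ q ∈ edgeList, q.1 < 10 ∧ q.2 < 10 ∧ q.1 ≠ q.2 := by decide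
    obtain ⟨h1, h2, h3⟩ := hlt _ h
    exact hG.braid x h1 y h2 h3 (by simp [adj, h])
  let s0 := u 0
  let s1 := tw s0 (u 1)
  let s2 := tw s1 (u 2)
  let s3 := tw s2 (u 3)
  let s4 := tw s3 (u 4)
  let s5 := tw s4 (u 5)
  let s6 := tw s5 (u 6)
  let s7 := tw s3 (u 7)
  let s8 := tw s7 (u 8)
  let s9 := tw s6 (u 9)
  have m1 : σ s1 = g 1 := tw_map σ (hu 0) (hu 1) (hb (by decide))
  have m2 : σ s2 = g 2 := tw_map σ m1 (hu 2) (hb (by decide))
  have m3 : σ s3 = g 3 := tw_map σ m2 (hu 3) (hb (by decide))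
  have m4 : σ s4 = g 4 := tw_map σ m3 (hu 4) (hb (by decide))
  have m5 : σ s5 = g 5 := tw_map σ m4 (hu 5) (hb (by decide))
  have m6 : σ s6 = g 6 := tw_map σ m5 (hu 6) (hb (by decide))
  have m7 : σ s7 = g 7 := tw_map σ m3 (hu 7) (hb (by decide))
  have m8 : σ s8 = g 8 := tw_map σ m7 (hu 8) (hb (by decide))
  have m9 : σ s9 = g 9 := tw_map σ m6 (hu 9) (hb (by decide))
  set z := s0 * s0 with hz0
  have hzk : z ∈ σ.ker := MonoidHom.mem_ker.2 (by
    rw [hz0, map_mul, hu 0]; exact hG.sq 0 (by norm_num))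
  have hz : ∀ e, e * z = z * e := fun e => Subgroup.mem_center_iff.1 (hc hzk) e
  have q1 : s1 * s1 = z := tw_sq hz rfl
  have q2 : s2 * s2 = z := tw_sq hz q1
  have q3 : s3 * s3 = z := tw_sq hz q2
  have q4 : s4 * s4 = z := tw_sq hz q3
  have q5 : s5 * s5 = z := tw_sq hz q4
  have q6 : s6 * s6 = z := tw_sq hz q5
  have q7 : s7 * s7 = z := tw_sq hz q3
  have q8 : s8 * s8 = z := tw_sq hz q7
  have q9 : s9 * s9 = z := tw_sq hz q6
  let s : ℕ → E := fun x => [s0, s1, s2, s3, s4, s5, s6, s7, s8, s9].getD x 1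
  have key : ∀ q ∈ edgeList, s q.1 * s q.2 * s q.1 = s q.2 * s q.1 * s q.2 := by
    intro q hq
    simp only [edgeList, List.mem_cons, List.not_mem_nil, or_false] at hq
    rcases hq with rfl | rfl | rfl | rfl | rfl | rfl | rfl | rfl | rfl
    · exact tw_braid σ hc (hu 0) (hu 1) (hb (by decide))
    · exact tw_braid σ hc m1 (hu 2) (hb (by decide))
    · exact tw_braid σ hc m2 (hu 3) (hb (by decide))
    · exact tw_braid σ hc m3 (hu 4) (hb (by decide))
    · exact tw_braid σ hc m3 (hu 7) (hb (by decide))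
    · exact tw_braid σ hc m4 (hu 5) (hb (by decide))
    · exact tw_braid σ hc m5 (hu 6) (hb (by decide))
    · exact tw_braid σ hc m6 (hu 9) (hb (by decide))
    · exact tw_braid σ hc m7 (hu 8) (hb (by decide))
  refine ⟨s, z, fun x hx => ?_, hzk, fun x hx => ?_, fun x _ y _ ha => ?_⟩
  · interval_cases x
    exacts [hu 0, m1, m2, m3, m4, m5, m6, m7, m8, m9]
  · interval_cases x
    exacts [rfl, q1, q2, q3, q4, q5, q6, q7, q8, q9]
  · rcases Bool.or_eq_true _ _ |>.mp ha with h | h
    · exact key (x, y) (List.contains_iff_mem.1 h)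
    · exact (key (y, x) (List.contains_iff_mem.1 h)).symm

/-- commutators of lifts of commuting involutions with equal squares -/
theorem comm_sq (hc : σ.ker ≤ Subgroup.center E) {A B z : E} (hz : ∀ e, e * z = z * e)
    (hA : A * A = z) (hB : B * B = z) (h : Commute (σ A) (σ B)) :
    ⁅A, B⁆ ∈ Subgroup.center E ∧ A * B = ⁅A, B⁆ * (B * A) ∧ ⁅A, B⁆ * ⁅A, B⁆ = 1 ∧
      ⁅B, A⁆ = ⁅A, B⁆ := by
  set k := ⁅A, B⁆ with hk
  have hkc : k ∈ Subgroup.center E := hc (MonoidHom.mem_ker.2 (by
    rw [hk, map_commutatorElement, commutatorElement_eq_one_iff_commute.2 h]))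
  have e1 : A * B = k * (B * A) := by rw [hk, commutatorElement_def]; group
  have e2 : A * B * A⁻¹ = k * B := by rw [e1]; group
  have hk2 : k * k = 1 := by
    have : k * B * (k * B) = z := by
      rw [← e2, show A * B * A⁻¹ * (A * B * A⁻¹) = A * (B * B) * A⁻¹ by group, hB, hz A,
        mul_inv_cancel_right]
    rw [show k * B * (k * B) = k * (B * k) * B by group, Subgroup.mem_center_iff.1 hkc B,
      show k * (k * B) * B = k * k * (B * B) by group, hB] at this
    exact mul_eq_right.1 this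
  refine ⟨hkc, e1, hk2, ?_⟩
  rw [← commutatorElement_inv, ← hk]
  exact inv_eq_of_mul_eq_one_right hk2

theorem comm_move (hc : σ.ker ≤ Subgroup.center E) {A B C z : E} (hz : ∀ e, e * z = z * e)
    (hA : A * A = z) (hB : B * B = z) (hC : C * C = z) (h1 : Commute (σ A) (σ B))
    (h2 : Commute (σ A) (σ C)) (hbr : B * C * B = C * B * C) : ⁅A, B⁆ = ⁅A, C⁆ := by
  obtain ⟨c1, e1, o1, -⟩ := comm_sq σ hc hz hA hB h1
  obtain ⟨c2, e2, o2, -⟩ := comm_sq σ hc hz hA hC h2
  set k := ⁅A, B⁆
  set l := ⁅A, C⁆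
  have d1 : A * B * A⁻¹ = k * B := by rw [e1]; group
  have d2 : A * C * A⁻¹ = l * C := by rw [e2]; group
  have h : A * (B * C * B) * A⁻¹ = A * (C * B * C) * A⁻¹ := by rw [hbr]
  rw [show A * (B * C * B) * A⁻¹ = A * B * A⁻¹ * (A * C * A⁻¹) * (A * B * A⁻¹) by group,
    show A * (C * B * C) * A⁻¹ = A * C * A⁻¹ * (A * B * A⁻¹) * (A * C * A⁻¹) by group, d1, d2] at h
  have ck : ∀ x, Commute x k := fun x => Subgroup.mem_center_iff.1 c1 x
  have cl : ∀ x, Commute x l := fun x => Subgroup.mem_center_iff.1 c2 x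
  have e3 : ∀ {k l : E}, (∀ x, Commute x k) → (∀ x, Commute x l) → k * k = 1 → ∀ P Q : E,
      k * P * (l * Q) * (k * P) = l * (P * Q * P) := by
    intro k l ck cl o P Q
    calc k * P * (l * Q) * (k * P) = k * (P * l) * (Q * k) * P := by group
      _ = k * (l * P) * (k * Q) * P := by rw [(cl P).eq, (ck Q).eq]
      _ = k * l * (P * k) * Q * P := by group
      _ = k * l * (k * P) * Q * P := by rw [(ck P).eq]
      _ = k * (l * k) * (P * Q * P) := by group
      _ = k * k * l * (P * Q * P) := by rw [(ck l).eq]; group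
      _ = l * (P * Q * P) := by rw [o, one_mul]
  rw [e3 ck cl o1 B C, e3 cl ck o2 C B, hbr] at h
  exact (mul_right_cancel h).symm

/-- the non-edges have one commutator -/
theorem chain_const {P : ℕ × ℕ → Prop} (hstep : ∀ q p, linked q p = true → P p → P q) :
    ∀ (l : List ((ℕ × ℕ) × (ℕ × ℕ))) (done : List (ℕ × ℕ)), (∀ q ∈ done, P q) →
      chainOK done l = true → ∀ e ∈ l, P e.1
  | [], _, _, _ => fun e he => absurd he List.not_mem_nil
  | e :: r, done, hd, h => by
    simp only [chainOK, Bool.and_eq_true, List.contains_iff_mem] at h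
    have he : P e.1 := hstep _ _ h.1.2 (hd _ h.1.1)
    intro e' he'
    rcases List.mem_cons.1 he' with rfl | he'
    · exact he
    · exact chain_const hstep r (e.1 :: done) (fun q hq => by
        rcases List.mem_cons.1 hq with rfl | hq
        exacts [he, hd q hq]) h.2 e' he'

end CfsgLib.Fi23Mult
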