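import Cfsg.Agent.Schur.CoxLift
import Cfsg.Agent.Fi23Mult.Data

/-!
Words and kernel-checked rewriting identities in the Coxeter group of Y342.
-/

set_option autoImplicit false
set_option maxRecDepth 100000
set_option maxHeartbeats 2000000

namespace CfsgLib.Fi23Mult

open CfsgLib.Schur.CoxLift

/-- the edges of Y342 -/
def edgeList : List (ℕ × ℕ) :=
  [(0, 1), (1, 2), (2, 3), (3, 4), (3, 7), (4, 5), (5, 6), (6, 9), (7, 8)]

/-- joined letters -/
def adj (x y : ℕ) : Bool := edgeList.contains (x, y) || edgeList.contains (y, x)

/-- the spider word, tenth power -/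
def relOne : List ℕ := (List.replicate 10 [3, 2, 1, 3, 4, 5, 3, 7, 8]).flatten

/-- the ninth power of the Coxeter word of E7 -/
def relTwo : List ℕ := (List.replicate 9 [0, 1, 2, 3, 4, 5, 7]).flatten

/-- a product of conjugates of the first relator -/
def conjs (us : List (List ℕ)) : List ℕ := us.flatMap fun u => u ++ relOne ++ u.reverse

/-- the first four transpositions -/
def yA : List ℕ := pairA0 ++ pairA1 ++ pairA2 ++ pairA3

/-- the second four transpositions -/
def yB : List ℕ := pairB0 ++ pairB1 ++ pairB2 ++ pairB3

/-- the quotient of the two products -/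
def pairWord : List ℕ := yA ++ yB.reverse

/-- the product of the moving transpositions -/
def mover : List ℕ := taus.flatten

/-- a conjugate by the moving element -/
def moved (a : List ℕ) : List ℕ := mover ++ a ++ mover.reverse

/-- letters below ten -/
def small (w : List ℕ) : Bool := w.all fun x => decide (x < 10)

theorem of_small {w : List ℕ} (h : small w = true) : ∀ x ∈ w, x < 10 := fun x hx =>
  of_decide_eq_true (List.all_eq_true.1 h x hx)

theorem words_small : (small yB && small mover && threeConj.all small && fourConj.all small &&
    taus.all small && small relTwo) = true := by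
  decide +kernel

theorem palins : ([pairA0, pairA1, pairA2, pairA3, pairB0, pairB1, pairB2, pairB3] ++ taus).all
    (fun w => small w && (w.reverse == w)) = true := by
  decide +kernel

theorem lengths : relTwo.length = 63 ∧ relTwo.all (fun x => !(x == 9) && !adj 9 x) = true ∧
    threeConj.length = 3 ∧ fourConj.length = 4 ∧ taus.length = 2 := by
  decide +kernel

/-- the linked non-edges -/
def nonEdge (p : ℕ × ℕ) : Bool :=
  decide (p.1 < 10) && decide (p.2 < 10) && !(p.1 == p.2) && !adj p.1 p.2

/-- two non-edges differ by one edge in one coordinate -/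
def linked (q p : ℕ × ℕ) : Bool :=
  nonEdge q && nonEdge p && ((q.1 == p.1 && adj q.2 p.2 && !(q.2 == p.2)) ||
    (q.2 == p.2 && adj q.1 p.1 && !(q.1 == p.1)))

/-- every entry is linked to an earlier one -/
def chainOK : List (ℕ × ℕ) → List ((ℕ × ℕ) × (ℕ × ℕ)) → Bool
  | _, [] => true
  | done, e :: r => done.contains e.2 && linked e.1 e.2 && chainOK (e.1 :: done) r

theorem chain_ok : chainOK [(9, 0)] chain = true := by decide +kernel

theorem chain_covers : (List.range 10).all (fun x => (List.range 10).all fun y =>
    !nonEdge (x, y) || ((x, y) :: []).contains (9, 0) ||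
      (chain.map Prod.fst).contains (x, y)) = true := by
  decide +kernel

end CfsgLib.Fi23Mult
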